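import Cfsg.Agent.H9.S11.N1

/-! Degrees which do not divide the order of `SL₁₁(q)`: kernel checks. -/

namespace Cfsg.Agent.H9.S11

theorem c7_3 : ck 7 3 11 195994194679515562127631224024892442840880873564559900672 40501 = true := by decide +kernel
theorem c8_3 : ck 8 3 11 1063838632518059959526111330437284347053592205047607421875 47329 = true := by decide +kernel

end Cfsg.Agent.H9.S11
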