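import Cfsg.Agent.H9.S11.N1

/-! Degrees which do not divide the order of `SL₁₁(q)`: kernel checks. -/

namespace Cfsg.Agent.H9.S11

theorem c2_1 : ck 2 1 11 6548327941065151057569431548734375 260 = true := by decide +kernel
theorem c3_1 : ck 3 1 11 1330954428734468533431993896638873600 424 = true := by decide +kernel
theorem c4_1 : ck 4 1 11 19308343513008848591944766011854769749 539 = true := by decide +kernel
theorem c5_1 : ck 5 1 11 120458520085300268555449115639688462336 633 = true := by decide +kernel
theorem c6_1 : ck 6 1 11 644289804551988127239427371063232421875 735 = true := by decide +kernel
theorem c7_1 : ck 7 1 11 3218650970441348342442674854580296089600 850 = true := by decide +kernel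
theorem c8_1 : ck 8 1 11 10530861517657520511726377887742519111025 944 = true := by decide +kernel
theorem c9_1 : ck 9 1 11 14573723493249656127925421032539877801984 964 = true := by decide +kernel
theorem c10_1 : ck 10 1 11 3032787400996573605948206448391432541631 815 = true := by decide +kernel
theorem c3_2 : ck 3 2 11 540110064574080055685977508223508825702872458 3079 = true := by decide +kernel
theorem c5_2 : ck 5 2 11 5770274978600681942568645751663349597845275165882 7396 = true := by decide +kernel
theorem c7_2 : ck 7 2 11 211471523745855263740590912739997643243713378906250 10251 = true := by decide +kernel
theorem c9_2 : ck 9 2 11 1785786429747999518634618190848716164063556093085050 12374 = true := by decide +kernel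
theorem c11_2 : ck 11 2 45 38255080716351450 5 = true := by decide +kernel
theorem c4_3 : ck 4 3 11 1061099041623207271864905776728154339780862211169175 12739 = true := by decide +kernel
theorem c11_3 : ck 11 3 45 105638284313488470835200 19 = true := by decide +kernel
theorem c1_1 : ck' 21718154127767951485458585027195934337859375000000000 59404 = true := by decide +kernel

end Cfsg.Agent.H9.S11
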