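import Cfsg.Agent.H9.S11.N2
import Cfsg.Agent.H9.S11.N3
import Cfsg.Agent.H9.S11.N4

/-! Degrees which do not divide the order of `SL₁₁(q)`. -/

set_option autoImplicit false

namespace Cfsg.Agent.H9.S11

theorem t_eq {k t : ℕ} (k0 : 0 < k) (ht : (11 * t : ℤ) = P ((11 * k + 1 : ℕ) : ℤ)) :
    ((11 * k + 1) ^ 11 - 1) / (121 * k) = t := by
  refine Nat.div_eq_of_eq_mul_right (by omega) (Nat.sub_eq_of_eq_add ?_)
  rw [P] at ht
  push_cast at ht
  zify
  linear_combination (-11 * (k : ℤ)) * ht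

theorem t_mod {k t : ℕ} (ht : (11 * t : ℤ) = P ((11 * k + 1 : ℕ) : ℤ)) : ∃ s : ℤ, (t : ℤ) = 11 * s + 1 := by
  refine ⟨5 * k + 165 * k ^ 2 + 3630 * k ^ 3 + 55902 * k ^ 4 + 614922 * k ^ 5 + 4831530 * k ^ 6 +
    26573415 * k ^ 7 + 97435855 * k ^ 8 + 214358881 * k ^ 9 + 214358881 * k ^ 10, ?_⟩
  rw [P] at ht
  push_cast at ht
  exact mul_left_cancel₀ (show (11 : ℤ) ≠ 0 by norm_num) (by linear_combination ht)

theorem P_ge {q : ℕ} (h : 34 ≤ q) : (q : ℤ) ^ 10 + 33 ≤ P q := by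
  have : (34 : ℤ) ≤ q := by exact_mod_cast h
  have : (0 : ℤ) ≤ q ^ 9 + q ^ 8 + q ^ 7 + q ^ 6 + q ^ 5 + q ^ 4 + q ^ 3 + q ^ 2 := by positivity
  rw [P]; linarith

theorem num0 {k t g x j K hi : ℕ} (hq : IsPrimePow (11 * k + 1)) (hk : 3 ≤ k)
    (ht : (11 * t : ℤ) = P ((11 * k + 1 : ℕ) : ℤ)) (x1 : 1 ≤ x) (x3 : x ≤ 3) (xg : x < g) (g2 : g ≤ 11)
    (hn : g ≠ 11 * x) (c : ck g x j K hi = true) : ¬ (g : ℤ) * t - x ∣ ord11 ((11 * k + 1 : ℕ) : ℤ) := fun h => by
  simp only [ck, Bool.and_eq_true, beq_iff_eq, decide_eq_true_eq] at c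
  obtain ⟨⟨⟨⟨c1, c2⟩, c3⟩, c4⟩, c5⟩ := c
  obtain ⟨s, hs⟩ := t_mod ht
  have t1 : 1 ≤ t := by omega
  have e : ((g * t - x : ℕ) : ℤ) = g * t - x := by
    rw [Nat.cast_sub (by nlinarith)]; push_cast; ring
  have h1 := bound (g := g) (c := 11 * x) hq (Dvd.intro_left 11 (by rw [← ht]; ring)) (by omega)
    (by rw [abs_lt]; omega) h
  rw [← e, Int.natCast_dvd, c1] at h1
  have h2 : g * t - x ∣ K := by
    refine Nat.Coprime.dvd_of_dvd_mul_left (Nat.Coprime.pow_right _ (Nat.Coprime.symm ?_)) h1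
    refine ((by norm_num : Nat.Prime 11).coprime_iff_not_dvd).2 fun ⟨w, hw⟩ => ?_
    have : (g : ℤ) * t - x = 11 * w := by rw [← e, hw]; push_cast; ring
    rw [hs, mul_add, mul_left_comm] at this
    omega
  have h3 : k < hi := by
    by_contra hc
    have a1 : ((g * t - x : ℕ) : ℤ) ≤ K := by exact_mod_cast Nat.le_of_dvd c2 h2
    have a2 := P_ge (q := 11 * k + 1) (by omega)
    have a3 : (11 * hi + 1) ^ 10 ≤ (11 * k + 1) ^ 10 := Nat.pow_le_pow_left (by omega) _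
    have a4 : 11 * K < g * (11 * k + 1) ^ 10 := c3.trans_le (Nat.mul_le_mul_left _ a3)
    have a5 : (11 * K : ℤ) < g * ((11 * k + 1 : ℕ) : ℤ) ^ 10 := by exact_mod_cast a4
    have a6 : (1 : ℤ) ≤ g := by omega
    have a7 : (x : ℤ) ≤ 3 := by omega
    rw [← ht] at a2
    nlinarith
  have := allP_spec c5 k (by omega) (by simpa using h3)
  simp only [zero_mul, zero_add, t_eq (by omega) ht, Bool.or_eq_true, Nat.ble_eq, bne_iff_ne] at this
  exact this.resolve_left (by omega) (Nat.mod_eq_zero_of_dvd h2)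

theorem num1 {k t K hi : ℕ} (hq : IsPrimePow (11 * k + 1)) (hk : 3 ≤ k)
    (ht : (11 * t : ℤ) = P ((11 * k + 1 : ℕ) : ℤ)) (c : ck' K hi = true) :
    ¬ (t : ℤ) - 1 ∣ ord11 ((11 * k + 1 : ℕ) : ℤ) := fun h => by
  simp only [ck', Bool.and_eq_true, beq_iff_eq, decide_eq_true_eq] at c
  obtain ⟨⟨⟨⟨c1, c2⟩, c3⟩, c4⟩, c5⟩ := c
  have e0 : (t : ℤ) - 1 = k * Ps ((11 * k + 1 : ℕ) : ℤ) := by
    refine mul_left_cancel₀ (show (11 : ℤ) ≠ 0 by norm_num) ?_
    rw [P] at ht
    rw [Ps]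
    push_cast at ht ⊢
    linear_combination ht
  have h1 := bound' hq (by omega) (by
    rw [show (((11 * k + 1 : ℕ) : ℤ) - 1) * Ps ((11 * k + 1 : ℕ) : ℤ) = 11 * (t - 1) by rw [e0]; push_cast; ring]
    exact mul_dvd_mul_left _ h)
  have p0 : ((11 * k + 1 : ℕ) : ℤ) ^ 9 ≤ Ps ((11 * k + 1 : ℕ) : ℤ) := by
    generalize 11 * k + 1 = q
    have : (0 : ℤ) ≤ 2 * q ^ 8 + 3 * q ^ 7 + 4 * q ^ 6 + 5 * q ^ 5 + 6 * q ^ 4 + 7 * q ^ 3 + 8 * q ^ 2 + 9 * q + 10 := by
      positivity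
    rw [Ps]; linarith
  obtain ⟨y, hy⟩ := Int.eq_ofNat_of_zero_le (le_trans (by positivity) p0)
  rw [hy] at h1 e0 p0
  rw [Int.natCast_dvd, c1] at h1
  have e1 : (t - 1) / k = y := Nat.div_eq_of_eq_mul_right (by omega) (Nat.sub_eq_of_eq_add (by zify; linarith))
  have h3 : k < hi := by
    by_contra hc
    have a1 := Nat.le_of_dvd c2 h1
    have a3 : (11 * hi + 1) ^ 9 ≤ (11 * k + 1) ^ 9 := Nat.pow_le_pow_left (by omega) _
    have a4 : (11 * k + 1) ^ 9 ≤ y := by exact_mod_cast p0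
    omega
  have := allP_spec c5 k (by omega) (by simpa using h3)
  simp only [zero_mul, zero_add, t_eq (by omega) ht, e1, Bool.or_eq_true, Nat.ble_eq, bne_iff_ne] at this
  exact this.resolve_left (by omega) (Nat.mod_eq_zero_of_dvd h1)

theorem small : ∀ g : Fin 12, ∀ x : Fin 4, 1 ≤ x.1 → x.1 ≤ g.1 → ¬ (g = 11 ∧ x = 1) →
    ord11 23 % (g.1 * (P 23 / 11) - x.1) ≠ 0 := by
  decide +kernel

theorem num {q t : ℕ} (hq : IsPrimePow q)
    (ht : 11 * t = q ^ 10 + q ^ 9 + q ^ 8 + q ^ 7 + q ^ 6 + q ^ 5 + q ^ 4 + q ^ 3 + q ^ 2 + q + 1)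
    (hd : q % 11 = 1) {g x : ℤ} (g2 : g ≤ 11) (x1 : 1 ≤ x) (x3 : x ≤ 3) (xg : x ≤ g) (hn : ¬ (g = 11 ∧ x = 1)) :
    ¬ g * t - x ∣ ord11 q := fun h => by
  have ht' : (11 * t : ℤ) = P q := by rw [P]; exact_mod_cast ht
  obtain ⟨k, rfl⟩ : ∃ k, q = 11 * k + 1 := ⟨q / 11, by omega⟩
  by_cases hk : k < 3
  · have h2 := hq.two_le
    obtain rfl | rfl : k = 1 ∨ k = 2 := by omega
    · exact absurd hq (by decide)
    obtain ⟨g, rfl⟩ := Int.eq_ofNat_of_zero_le (a := g) (by omega)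
    obtain ⟨x, rfl⟩ := Int.eq_ofNat_of_zero_le (a := x) (by omega)
    refine small ⟨g, by omega⟩ ⟨x, by omega⟩ (by simp only; omega) (by simp only; omega)
      (by simp only [Fin.ext_iff]; simp; omega) (Int.emod_eq_zero_of_dvd ?_)
    have : P 23 / 11 = t := by rw [show P 23 = 11 * t from ht'.symm]; omega
    rw [this]
    exact h
  have hk : 3 ≤ k := by omega
  have n1 := num1 hq hk ht' c1_1
  have n (g x j K hi : ℕ) := num0 (g := g) (x := x) (j := j) (K := K) (hi := hi) hq hk ht'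
  have n2 := n _ _ _ _ _ (by decide) (by decide) (by decide) (by decide) (by decide) c2_1
  have n3 := n _ _ _ _ _ (by decide) (by decide) (by decide) (by decide) (by decide) c3_1
  have n4 := n _ _ _ _ _ (by decide) (by decide) (by decide) (by decide) (by decide) c4_1
  have n5 := n _ _ _ _ _ (by decide) (by decide) (by decide) (by decide) (by decide) c5_1
  rw [Nat.cast_one, Nat.cast_ofNat] at n2 n3 n4 n5
  interval_cases x <;> interval_cases g
  · exact n1 (by simpa using h)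
  · exact n2 h
  · exact n3 h
  · exact n4 h
  · exact n5 h
  · exact n _ _ _ _ _ (by decide) (by decide) (by decide) (by decide) (by decide) c6_1 h
  · exact n _ _ _ _ _ (by decide) (by decide) (by decide) (by decide) (by decide) c7_1 h
  · exact n _ _ _ _ _ (by decide) (by decide) (by decide) (by decide) (by decide) c8_1 h
  · exact n _ _ _ _ _ (by decide) (by decide) (by decide) (by decide) (by decide) c9_1 h
  · exact n _ _ _ _ _ (by decide) (by decide) (by decide) (by decide) (by decide) c10_1 h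
  · exact hn ⟨rfl, rfl⟩
  · exact n1 ((Dvd.intro_left 2 (by ring)).trans h)
  · exact n _ _ _ _ _ (by decide) (by decide) (by decide) (by decide) (by decide) c3_2 h
  · exact n2 ((Dvd.intro_left 2 (by ring)).trans h)
  · exact n _ _ _ _ _ (by decide) (by decide) (by decide) (by decide) (by decide) c5_2 h
  · exact n3 ((Dvd.intro_left 2 (by ring)).trans h)
  · exact n _ _ _ _ _ (by decide) (by decide) (by decide) (by decide) (by decide) c7_2 h
  · exact n4 ((Dvd.intro_left 2 (by ring)).trans h)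
  · exact n _ _ _ _ _ (by decide) (by decide) (by decide) (by decide) (by decide) c9_2 h
  · exact n5 ((Dvd.intro_left 2 (by ring)).trans h)
  · exact n _ _ _ _ _ (by decide) (by decide) (by decide) (by decide) (by decide) c11_2 h
  · exact n1 ((Dvd.intro_left 3 (by ring)).trans h)
  · exact n _ _ _ _ _ (by decide) (by decide) (by decide) (by decide) (by decide) c4_3 h
  · exact n _ _ _ _ _ (by decide) (by decide) (by decide) (by decide) (by decide) c5_3 h
  · exact n2 ((Dvd.intro_left 3 (by ring)).trans h)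
  · exact n _ _ _ _ _ (by decide) (by decide) (by decide) (by decide) (by decide) c7_3 h
  · exact n _ _ _ _ _ (by decide) (by decide) (by decide) (by decide) (by decide) c8_3 h
  · exact n3 ((Dvd.intro_left 3 (by ring)).trans h)
  · exact n _ _ _ _ _ (by decide) (by decide) (by decide) (by decide) (by decide) c10_3 h
  · exact n _ _ _ _ _ (by decide) (by decide) (by decide) (by decide) (by decide) c11_3 h

end Cfsg.Agent.H9.S11
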