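import Mathlib

/-! The order of `SL₁₁(q)` as a polynomial. -/

namespace Cfsg.Agent.H9.S11

/-- the order of `SL₁₁(q)` -/
def ord11 (q : ℤ) : ℤ := q ^ 55 * (q ^ 2 - 1) * (q ^ 3 - 1) * (q ^ 4 - 1) * (q ^ 5 - 1) * (q ^ 6 - 1) * (q ^ 7 - 1) *
  (q ^ 8 - 1) * (q ^ 9 - 1) * (q ^ 10 - 1) * (q ^ 11 - 1)

end Cfsg.Agent.H9.S11
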