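import Cfsg.Agent.H9.Ch.A
import Cfsg.Agent.H9.S11.Ord

/-! Degrees which do not divide the order of `SL₁₁(q)`: resultants and tests. -/

set_option autoImplicit false

namespace Cfsg.Agent.H9.S11

open Cfsg.Agent.H9.Ch (force force_eq)

/-- `a` can be replaced by `r` in products divisible by `D` -/
def Rd (D a r : ℤ) : Prop := ∀ Y, D ∣ Y * a → D ∣ Y * r

variable {E D a b r s q g c : ℤ}

theorem Rd.mul (h : Rd D a r) (h' : Rd D b s) : Rd D (a * b) (r * s) := fun Y e => by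
  have := h (Y * s) (by have := h' (Y * a) (by rwa [mul_assoc]); rwa [mul_right_comm] at this)
  rwa [mul_right_comm, mul_assoc] at this

theorem Rd.pow (h : Rd D a r) (n : ℕ) : Rd D (a ^ n) (r ^ n) := by
  induction n with
  | zero => exact fun _ e => by simpa using e
  | succ n ih => rw [pow_succ, pow_succ]; exact ih.mul h

theorem Rd.of (hE : E ∣ D) (u w : ℤ) (e : r = a * u + D * w) : Rd E a r := fun Y h => by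
  rw [e, mul_add, ← mul_assoc, mul_left_comm Y]; exact dvd_add (h.mul_right _) (hE.mul_right _)

theorem rd_pp {q : ℕ} (hq : IsPrimePow q) (hE : E ∣ D) (n : ℕ) (u : ℤ) (e : D = q * u + r) (r0 : r ≠ 0)
    (hr : |r| < q) : Rd E (q ^ n) r := fun Y h => by
  obtain ⟨p, k, hp, -, rfl⟩ := (isPrimePow_nat_iff q).1 hq
  refine (dvd_mul_gcd_of_dvd_mul h).trans (mul_dvd_mul_left _ ?_)
  obtain ⟨j, -, f⟩ := (dvd_prime_pow (Nat.prime_iff_prime_int.1 hp) (k * n)).1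
    (by simpa [pow_mul] using gcd_dvd_right E _ : gcd E (((p ^ k : ℕ) : ℤ) ^ n) ∣ _)
  have := (f.symm.dvd.trans (gcd_dvd_left _ _)).trans hE
  rcases le_total j k with l | l
  · rw [e] at this
    exact f.dvd.trans ((dvd_add_right (((pow_dvd_pow _ l).trans (by simp)).mul_right u)).1 this)
  · have := (pow_dvd_pow _ l).trans this
    rw [e, dvd_add_right (by simp)] at this
    exact absurd (Int.le_of_dvd (abs_pos.2 r0) ((dvd_abs _ _).2 this)) (by simpa using hr)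

/-- the eleventh cyclotomic polynomial -/
def P (q : ℤ) : ℤ := q ^ 10 + q ^ 9 + q ^ 8 + q ^ 7 + q ^ 6 + q ^ 5 + q ^ 4 + q ^ 3 + q ^ 2 + q + 1

theorem rd3 (h : E ∣ g * P q - c) : Rd E (q ^ 2 + q + 1) (g ^ 2 - g * c + c ^ 2) :=
  Rd.of h ((g ^ 2) + (g * c) * q ^ 2 + (g ^ 2) * q ^ 3 + (g * c) * q ^ 5 + (g ^ 2) * q ^ 6 + (g * c) * q ^ 8 + (g ^ 2) * q ^ 9)
    ((-c) + (-g) * q) (by rw [P]; ring)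

theorem rd4 (h : E ∣ g * P q - c) : Rd E (q ^ 2 + 1) (g ^ 2 + c ^ 2) :=
  Rd.of h ((g ^ 2 + g * c) + (g ^ 2) * q + (g * c) * q ^ 3 + (g ^ 2 + g * c) * q ^ 4 + (g ^ 2) * q ^ 5 + (g * c) * q ^ 7 + (g ^ 2 + g * c) * q ^ 8 + (g ^ 2) * q ^ 9)
    ((-c) + (-g) * q) (by rw [P]; ring)

theorem rd6 (h : E ∣ g * P q - c) : Rd E (q ^ 2 - q + 1) (g ^ 2 + g * c + c ^ 2) :=
  Rd.of h ((g ^ 2 + 2 * g * c) + (2 * g ^ 2 + 2 * g * c) * q + (2 * g ^ 2 + g * c) * q ^ 2 + (g ^ 2) * q ^ 3 + (g * c) * q ^ 5 + (g ^ 2 + 2 * g * c) * q ^ 6 + (2 * g ^ 2 + 2 * g * c) * q ^ 7 + (2 * g ^ 2 + g * c) * q ^ 8 + (g ^ 2) * q ^ 9)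
    ((-c) + (-g) * q) (by rw [P]; ring)

theorem rd7 (h : E ∣ g * P q - c) : Rd E (q ^ 6 + q ^ 5 + q ^ 4 + q ^ 3 + q ^ 2 + q + 1) (g ^ 6 - 5 * g ^ 5 * c + 11 * g ^ 4 * c ^ 2 - 13 * g ^ 3 * c ^ 3 + 9 * g ^ 2 * c ^ 4 - 3 * g * c ^ 5 + c ^ 6) :=
  Rd.of h ((g ^ 2 * c ^ 4) + (-g ^ 6 + 3 * g ^ 5 * c - 4 * g ^ 4 * c ^ 2 + 2 * g ^ 3 * c ^ 3) * q + (-g ^ 4 * c ^ 2 + g ^ 3 * c ^ 3) * q ^ 2 + (-g ^ 6 + 4 * g ^ 5 * c - 7 * g ^ 4 * c ^ 2 + 6 * g ^ 3 * c ^ 3 - 2 * g ^ 2 * c ^ 4 + g * c ^ 5) * q ^ 4 + (-g ^ 5 * c + 2 * g ^ 4 * c ^ 2 - 2 * g ^ 3 * c ^ 3 + g ^ 2 * c ^ 4) * q ^ 5 + (-g ^ 3 * c ^ 3 + g ^ 2 * c ^ 4) * q ^ 6 + (g ^ 2 * c ^ 4) * q ^ 7 + (-g ^ 6 + 3 * g ^ 5 * c - 4 * g ^ 4 * c ^ 2 + 2 * g ^ 3 * c ^ 3) * q ^ 8 + (-g ^ 4 * c ^ 2 + g ^ 3 * c ^ 3) * q ^ 9)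
    ((g ^ 5 - 4 * g ^ 4 * c + 7 * g ^ 3 * c ^ 2 - 6 * g ^ 2 * c ^ 3 + 2 * g * c ^ 4 - c ^ 5) + (g ^ 4 * c - 2 * g ^ 3 * c ^ 2 + 2 * g ^ 2 * c ^ 3 - g * c ^ 4) * q + (g ^ 2 * c ^ 3 - g * c ^ 4) * q ^ 2 + (-g * c ^ 4) * q ^ 3 + (g ^ 5 - 3 * g ^ 4 * c + 4 * g ^ 3 * c ^ 2 - 2 * g ^ 2 * c ^ 3) * q ^ 4 + (g ^ 3 * c ^ 2 - g ^ 2 * c ^ 3) * q ^ 5) (by rw [P]; ring)

theorem rd8 (h : E ∣ g * P q - c) : Rd E (q ^ 4 + 1) (g ^ 4 - 4 * g ^ 3 * c + 8 * g ^ 2 * c ^ 2 - 4 * g * c ^ 3 + c ^ 4) :=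
  Rd.of h ((g ^ 3 * c + g ^ 2 * c ^ 2) + (-g ^ 4 + 2 * g ^ 3 * c) * q + (-g ^ 4 + 4 * g ^ 3 * c - 3 * g ^ 2 * c ^ 2 + g * c ^ 3) * q ^ 3 + (-g ^ 4 + 2 * g ^ 3 * c - 2 * g ^ 2 * c ^ 2 + g * c ^ 3) * q ^ 4 + (g ^ 3 * c - g ^ 2 * c ^ 2 + g * c ^ 3) * q ^ 5 + (-g ^ 4 + 3 * g ^ 3 * c - g ^ 2 * c ^ 2 + g * c ^ 3) * q ^ 6 + (-g ^ 3 * c + 2 * g ^ 2 * c ^ 2) * q ^ 7 + (g ^ 3 * c + g ^ 2 * c ^ 2) * q ^ 8 + (-g ^ 4 + 2 * g ^ 3 * c) * q ^ 9)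
    ((g ^ 3 - 4 * g ^ 2 * c + 3 * g * c ^ 2 - c ^ 3) + (2 * g ^ 2 * c - g * c ^ 2) * q + (-g ^ 3 + g ^ 2 * c - g * c ^ 2) * q ^ 2 + (g ^ 3 - 2 * g ^ 2 * c) * q ^ 3) (by rw [P]; ring)

theorem rd9 (h : E ∣ g * P q - c) : Rd E (q ^ 6 + q ^ 3 + 1) (g ^ 6 - 3 * g ^ 5 * c + 12 * g ^ 4 * c ^ 2 - 19 * g ^ 3 * c ^ 3 + 15 * g ^ 2 * c ^ 4 - 6 * g * c ^ 5 + c ^ 6) :=
  Rd.of h ((g ^ 6) + (3 * g ^ 5 * c - 9 * g ^ 4 * c ^ 2 + 10 * g ^ 3 * c ^ 3 - 5 * g ^ 2 * c ^ 4 + g * c ^ 5) * q ^ 2 + (-3 * g ^ 4 * c ^ 2 + 6 * g ^ 3 * c ^ 3 - 4 * g ^ 2 * c ^ 4 + g * c ^ 5) * q ^ 3 + (3 * g ^ 5 * c - 6 * g ^ 4 * c ^ 2 + 7 * g ^ 3 * c ^ 3 - 4 * g ^ 2 * c ^ 4 + g * c ^ 5) * q ^ 4 + (g ^ 6 - 2 * g ^ 5 * c + 4 * g ^ 4 * c ^ 2 - 3 * g ^ 3 * c ^ 3 + g ^ 2 * c ^ 4) * q ^ 5 + (2 * g ^ 5 * c - 2 * g ^ 4 * c ^ 2 +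 g ^ 3 * c ^ 3) * q ^ 6 + (g ^ 6 - g ^ 5 * c + g ^ 4 * c ^ 2) * q ^ 7 + (g ^ 5 * c) * q ^ 8 + (g ^ 6) * q ^ 9)
    ((-3 * g ^ 4 * c + 9 * g ^ 3 * c ^ 2 - 10 * g ^ 2 * c ^ 3 + 5 * g * c ^ 4 - c ^ 5) + (3 * g ^ 4 * c - 6 * g ^ 3 * c ^ 2 + 4 * g ^ 2 * c ^ 3 - g * c ^ 4) * q + (-3 * g ^ 4 * c + 3 * g ^ 3 * c ^ 2 - g ^ 2 * c ^ 3) * q ^ 2 + (-g ^ 5 + 2 * g ^ 4 * c - g ^ 3 * c ^ 2) * q ^ 3 + (g ^ 5 - g ^ 4 * c) * q ^ 4 + (-g ^ 5) * q ^ 5) (by rw [P]; ring)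

/-- the cyclotomic factors -/
def Rs (q : ℤ) : ℤ := ((q + 1) * (q ^ 4 + q ^ 3 + q ^ 2 + q + 1) * (q ^ 4 - q ^ 3 + q ^ 2 - q + 1)) ^ 5 *
  (q ^ 2 + q + 1) ^ 3 * (q ^ 2 + 1) ^ 2 * (q ^ 2 - q + 1) * (q ^ 6 + q ^ 5 + q ^ 4 + q ^ 3 + q ^ 2 + q + 1) *
  (q ^ 4 + 1) * (q ^ 6 + q ^ 3 + 1) * P q

/-- the product of the resultants -/
def KR (g c : ℤ) : ℤ := (g - c) ^ 5 * (g ^ 2 - g * c + c ^ 2) ^ 3 * (g ^ 2 + c ^ 2) ^ 2 * (g ^ 2 + g * c + c ^ 2) *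
    (g ^ 6 - 5 * g ^ 5 * c + 11 * g ^ 4 * c ^ 2 - 13 * g ^ 3 * c ^ 3 + 9 * g ^ 2 * c ^ 4 - 3 * g * c ^ 5 + c ^ 6) *
    (g ^ 4 - 4 * g ^ 3 * c + 8 * g ^ 2 * c ^ 2 - 4 * g * c ^ 3 + c ^ 4) *
    (g ^ 6 - 3 * g ^ 5 * c + 12 * g ^ 4 * c ^ 2 - 19 * g ^ 3 * c ^ 3 + 15 * g ^ 2 * c ^ 4 - 6 * g * c ^ 5 + c ^ 6) * c

theorem rdR (h : E ∣ g * P q - c) : Rd E (Rs q) (KR g c) :=
  ((((((((Rd.of h (-g * q) 1 (by rw [P]; ring)).pow 5).mul ((rd3 h).pow 3)).mul ((rd4 h).pow 2)).mul (rd6 h)).mul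
    (rd7 h)).mul (rd8 h)).mul (rd9 h)).mul (Rd.of h g (-1) (by ring))

theorem ord_dvd (q : ℤ) : ord11 q ∣ q ^ 55 * (q - 1) ^ 10 * Rs q := by
  have e2 : q ^ 2 - 1 = (q - 1) * (q + 1) := by ring
  have e3 : q ^ 3 - 1 = (q - 1) * (q ^ 2 + q + 1) := by ring
  have e4 : q ^ 4 - 1 = (q - 1) * (q + 1) * (q ^ 2 + 1) := by ring
  have e5 : q ^ 5 - 1 = (q - 1) * (q ^ 4 + q ^ 3 + q ^ 2 + q + 1) := by ring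
  have e6 : q ^ 6 - 1 = (q - 1) * (q + 1) * (q ^ 2 + q + 1) * (q ^ 2 - q + 1) := by ring
  have e7 : q ^ 7 - 1 = (q - 1) * (q ^ 6 + q ^ 5 + q ^ 4 + q ^ 3 + q ^ 2 + q + 1) := by ring
  have e8 : q ^ 8 - 1 = (q - 1) * (q + 1) * (q ^ 2 + 1) * (q ^ 4 + 1) := by ring
  have e9 : q ^ 9 - 1 = (q - 1) * (q ^ 2 + q + 1) * (q ^ 6 + q ^ 3 + 1) := by ring
  have e10 : q ^ 10 - 1 = (q - 1) * (q + 1) * (q ^ 4 + q ^ 3 + q ^ 2 + q + 1) * (q ^ 4 - q ^ 3 + q ^ 2 - q + 1) := by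
    ring
  have e11 : q ^ 11 - 1 = (q - 1) * P q := by rw [P]; ring
  rw [ord11, Rs, e2, e3, e4, e5, e6, e7, e8, e9, e10, e11]
  generalize q ^ 55 = a0
  generalize q ^ 6 + q ^ 5 + q ^ 4 + q ^ 3 + q ^ 2 + q + 1 = a7
  generalize q ^ 4 + q ^ 3 + q ^ 2 + q + 1 = a5
  generalize q ^ 4 - q ^ 3 + q ^ 2 - q + 1 = a10
  generalize q ^ 6 + q ^ 3 + 1 = a9
  generalize q ^ 2 + q + 1 = a3
  generalize q ^ 2 - q + 1 = a6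
  generalize q ^ 4 + 1 = a8
  generalize q ^ 2 + 1 = a4
  generalize q + 1 = a2
  generalize q - 1 = a1
  exact Dvd.intro (a5 ^ 3 * a10 ^ 4) (by ring)

theorem bound {q : ℕ} (hq : IsPrimePow q) (hE : E ∣ g * P q - c) (r0 : g - c ≠ 0) (hr : |g - c| < q)
    (h : E ∣ ord11 q) : E ∣ (g - c) * (11 * g - c) ^ 10 * KR g c := by
  have := (((rd_pp hq hE 55 (g * (q ^ 9 + q ^ 8 + q ^ 7 + q ^ 6 + q ^ 5 + q ^ 4 + q ^ 3 + q ^ 2 + q + 1))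
    (by rw [P]; ring) r0 hr).mul ((Rd.of (a := q - 1) (r := 11 * g - c) hE (-g * (q ^ 9 + 2 * q ^ 8 + 3 * q ^ 7 +
      4 * q ^ 6 + 5 * q ^ 5 + 6 * q ^ 4 + 7 * q ^ 3 + 8 * q ^ 2 + 9 * q + 10)) 1 (by rw [P]; ring)).pow 10)).mul
    (rdR hE)) 1 (by rw [one_mul]; exact h.trans (ord_dvd _))
  rwa [one_mul] at this

/-- the quotient `(P q - 11) / (q - 1)` -/
def Ps (q : ℤ) : ℤ :=
  q ^ 9 + 2 * q ^ 8 + 3 * q ^ 7 + 4 * q ^ 6 + 5 * q ^ 5 + 6 * q ^ 4 + 7 * q ^ 3 + 8 * q ^ 2 + 9 * q + 10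

theorem bound' {q : ℕ} (hq : IsPrimePow q) (hr : 10 < q) (h : (q - 1) * Ps q ∣ 11 * ord11 q) :
    Ps q ∣ 11 * (10 * 55 ^ 9 * KR 1 11) := by
  refine (((rd_pp hq dvd_rfl 55 (q ^ 8 + 2 * q ^ 7 + 3 * q ^ 6 + 4 * q ^ 5 + 5 * q ^ 4 + 6 * q ^ 3 + 7 * q ^ 2 +
    8 * q + 9) (by rw [Ps]; ring) (by simp) (by simpa)).mul ((Rd.of (a := q - 1) (r := 55) dvd_rfl
      (-(q ^ 8 + 3 * q ^ 7 + 6 * q ^ 6 + 10 * q ^ 5 + 15 * q ^ 4 + 21 * q ^ 3 + 28 * q ^ 2 + 36 * q + 45)) 1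
      (by rw [Ps]; ring)).pow 9)).mul (rdR (Dvd.intro_left (q - 1) (by rw [P, Ps]; ring)))) 11 ?_
  refine (mul_dvd_mul_iff_left (show (q - 1 : ℤ) ≠ 0 by omega)).1 ?_
  exact (h.trans (mul_dvd_mul_left _ (ord_dvd _))).trans (Dvd.intro 1 (by ring))

/-- all of a dyadic block below `hi` -/
def allP (g : ℕ → Bool) (hi : ℕ) : ℕ → ℕ → Bool
  | 0, a => force a g
  | k + 1, a => force a fun a => decide (hi ≤ a * 2 ^ (k + 1)) || (allP g hi k (2 * a) && allP g hi k (2 * a + 1))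

theorem allP_spec {g : ℕ → Bool} {hi k a : ℕ} (h : allP g hi k a = true) (i : ℕ) (hk : i < 2 ^ k)
    (hh : a * 2 ^ k + i < hi) : g (a * 2 ^ k + i) = true := by
  induction k generalizing a i with
  | zero => simp only [allP, force_eq] at h; simp at hk; simpa [hk] using h
  | succ k ih =>
    simp only [allP, force_eq, Bool.or_eq_true, Bool.and_eq_true, decide_eq_true_eq] at h
    have h := h.resolve_left (by omega)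
    by_cases h1 : i < 2 ^ k
    · have e : 2 * a * 2 ^ k + i = a * 2 ^ (k + 1) + i := by ring
      exact e ▸ ih h.1 i h1 (e ▸ hh)
    · have e : (2 * a + 1) * 2 ^ k + (i - 2 ^ k) = a * 2 ^ (k + 1) + i := by
        rw [pow_succ]; zify [not_lt.1 h1]; ring
      exact e ▸ ih h.2 (i - 2 ^ k) (by omega) (e ▸ hh)

/-- the test for a pair -/
def ck (g x j K hi : ℕ) : Bool :=
  ((g - 11 * x : ℤ) * (11 * g - 11 * x) ^ 10 * KR g (11 * x)).natAbs == 11 ^ j * K && decide (0 < K) &&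
  decide (11 * K < g * (11 * hi + 1) ^ 10) && decide (hi ≤ 2 ^ 16) &&
  allP (fun k => Nat.ble k 2 || K % (g * (((11 * k + 1) ^ 11 - 1) / (121 * k)) - x) != 0) hi 16 0

/-- the test for the diagonal pair -/
def ck' (K hi : ℕ) : Bool :=
  (11 * (10 * 55 ^ 9 * KR 1 11)).natAbs == K && decide (0 < K) && decide (K < (11 * hi + 1) ^ 9) &&
  decide (hi ≤ 2 ^ 16) &&
  allP (fun k => Nat.ble k 2 || K % ((((11 * k + 1) ^ 11 - 1) / (121 * k) - 1) / k) != 0) hi 16 0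

end Cfsg.Agent.H9.S11
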