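import Cfsg.Agent.H9.S11.N1

/-! Degrees which do not divide the order of `SL₁₁(q)`: kernel checks. -/

namespace Cfsg.Agent.H9.S11

theorem c5_3 : ck 5 3 11 599036230050331430306571838964899098017616658597675008 23475 = true := by decide +kernel
theorem c10_3 : ck 10 3 11 11257658002472040097098164874745249190034603465300113016753 58600 = true := by decide +kernel

end Cfsg.Agent.H9.S11
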